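import Cfsg.Agent.H251.ZN
import Cfsg.Agent.Lib.CoprimeCommutator
import Cfsg.Agent.Lib.CoprimeAbelian
import Cfsg.Agent.H252.ZNStruct
set_option linter.all false

-- part: H251/OddGen
section
/-!
The subgroup `O²(P)` generated by the odd-order elements of `P`, counting tools.
-/

set_option autoImplicit false
set_option linter.unusedSectionVars false

namespace Cfsg.Agent.H251

open Cfsg Subgroup
open scoped Pointwise commutatorElement

variable {G : Type*} [Group G]

/-- `O²(P)`: generated by the odd-order elements of `P`. -/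
def oddGen (P : Subgroup G) : Subgroup G := closure {g : G | g ∈ P ∧ Odd (orderOf g)}

theorem mem_oddGen {P : Subgroup G} {g : G} (hg : g ∈ P) (ho : Odd (orderOf g)) : g ∈ oddGen P :=
  subset_closure ⟨hg, ho⟩

theorem oddGen_le (P : Subgroup G) : oddGen P ≤ P := (closure_le _).2 fun _ h => h.1

theorem oddGen_mono {P Q : Subgroup G} (h : P ≤ Q) : oddGen P ≤ oddGen Q :=
  closure_mono fun _ hg => ⟨h hg.1, hg.2⟩

theorem oddGen_oddGen (P : Subgroup G) : oddGen (oddGen P) = oddGen P := by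
  refine le_antisymm (oddGen_le _) ((closure_le _).2 ?_)
  rintro g ⟨hg, ho⟩
  exact mem_oddGen (mem_oddGen hg ho) ho

theorem oddGen_cj (g : G) (P : Subgroup G) : oddGen (cj g P) = cj g (oddGen P) := by
  have key : ∀ (g : G) (P : Subgroup G), cj g (oddGen P) ≤ oddGen (cj g P) := by
    intro g P
    rw [cj_le_iff, oddGen, closure_le]
    rintro x ⟨hx, ho⟩
    show x ∈ cj g⁻¹ (oddGen (cj g P))
    rw [mem_cj]
    have h1 : orderOf (g⁻¹⁻¹ * x * g⁻¹) = orderOf x := by
      have : g⁻¹⁻¹ * x * g⁻¹ = MulAut.conj g x := by simp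
      rw [this]
      exact orderOf_injective (MulAut.conj g).toMonoidHom (MulAut.conj g).injective x
    refine mem_oddGen ?_ (by rw [h1]; exact ho)
    rw [mem_cj]
    have : g⁻¹ * (g⁻¹⁻¹ * x * g⁻¹) * g = x := by group
    rwa [this]
  refine le_antisymm ?_ (key g P)
  have := key g⁻¹ (cj g P)
  rwa [cj_inv_cj, cj_le_iff, inv_inv] at this

theorem normalizer_le_normalizer_oddGen (P : Subgroup G) :
    normalizer (P : Set G) ≤ normalizer (oddGen P : Set G) := by
  intro g hg
  rw [← cj_eq_self_iff] at hg ⊢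
  rw [← oddGen_cj, hg]

theorem le_normalizer_oddGen (P : Subgroup G) : P ≤ normalizer (oddGen P : Set G) :=
  le_normalizer.trans (normalizer_le_normalizer_oddGen P)

/-- An odd-order element of `P` lies in every subgroup `N`, normalized by `P`, of 2-power index. -/
theorem mem_of_relIndex_pow {P N : Subgroup G} (hn : P ≤ normalizer (N : Set G))
    {k : ℕ} (hk : N.relIndex P ∣ 2 ^ k) {g : G} (hg : g ∈ P) (ho : Odd (orderOf g)) : g ∈ N := by
  have h1 : (N.subgroupOf P).Normal := normal_subgroupOf_of_le_normalizer hn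
  have h2 : (⟨g, hg⟩ : P) ^ (N.subgroupOf P).index ∈ N.subgroupOf P :=
    Subgroup.pow_index_mem (N.subgroupOf P) _
  have h3 : g ^ N.relIndex P ∈ N := by
    rw [mem_subgroupOf] at h2
    exact h2
  have h4 : g ^ (2 ^ k) ∈ N := by
    obtain ⟨m, hm⟩ := hk
    rw [hm, pow_mul]
    exact N.pow_mem h3 m
  have hcop : (2 ^ k).Coprime (orderOf g) :=
    Nat.Coprime.pow_left k ((Nat.coprime_two_left).2 ho)
  obtain ⟨m, hm⟩ := exists_pow_eq_self_of_coprime hcop
  rw [← hm]
  exact N.pow_mem h4 m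

theorem oddGen_le_of_relIndex {P N : Subgroup G} (hn : P ≤ normalizer (N : Set G))
    {k : ℕ} (hk : N.relIndex P ∣ 2 ^ k) : oddGen P ≤ N :=
  (closure_le _).2 fun _ h => mem_of_relIndex_pow hn hk h.1 h.2

variable [Finite G]

theorem card_mul_relIndex {H K : Subgroup G} (h : H ≤ K) :
    Nat.card H * H.relIndex K = Nat.card K := by
  have := relIndex_mul_relIndex (⊥ : Subgroup G) H K bot_le h
  simpa using this

/-- `|H| |K| = |H K| |H ∩ K|` when `K` normalizes `H`. -/
theorem card_sup_mul_card_inf {H K : Subgroup G} (h : K ≤ normalizer (H : Set G)) :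
    Nat.card ↥(H ⊔ K) * Nat.card ↥(H ⊓ K) = Nat.card H * Nat.card K := by
  rw [← Cfsg.Agent.Lib.ProductSet.card_mul_card_inf H K,
    ← Subgroup.coe_mul_of_right_le_normalizer_left H K h]
  rfl

/-- Membership in `H ⊔ K` when `K` normalizes `H`. -/
theorem mem_sup_iff {H K : Subgroup G} (h : K ≤ normalizer (H : Set G)) {x : G} :
    x ∈ H ⊔ K ↔ ∃ a ∈ H, ∃ b ∈ K, x = a * b := by
  have h1 : ((H ⊔ K : Subgroup G) : Set G) = (H : Set G) * (K : Set G) :=
    Subgroup.coe_mul_of_right_le_normalizer_left H K h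
  rw [← SetLike.mem_coe, h1, Set.mem_mul]
  constructor
  · rintro ⟨a, ha, b, hb, rfl⟩; exact ⟨a, ha, b, hb, rfl⟩
  · rintro ⟨a, ha, b, hb, rfl⟩; exact ⟨a, ha, b, hb, rfl⟩

/-- A subgroup of index 2 is normal. -/
theorem le_normalizer_of_relIndex_two {H K : Subgroup G} (hHK : H ≤ K) (h : H.relIndex K = 2) :
    K ≤ normalizer (H : Set G) :=
  le_normalizer_of_normal_subgroupOf hHK (Subgroup.normal_of_index_eq_two h)

/-- Counting fixed points of a `p`-group acting by conjugation: if `C_W(A) = 1` then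
`|W| ≡ 1 mod p`. -/
theorem card_modEq_one {p : ℕ} [Fact p.Prime] {A W : Subgroup G} (hA : IsPGroup p A)
    (hAW : A ≤ normalizer (W : Set G)) (hC : W ⊓ centralizer (A : Set G) = ⊥) :
    Nat.card W ≡ 1 [MOD p] := by
  have hmem : ∀ (t : A) (u : G), u ∈ W → (t : G) * u * (t : G)⁻¹ ∈ W := fun t u hu =>
    (Subgroup.mem_normalizer_iff.1 (hAW t.2) u).1 hu
  let act : MulAction A W :=
    { smul := fun t u => ⟨(t : G) * u * (t : G)⁻¹, hmem t u u.2⟩
      one_smul := fun u => Subtype.ext (by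
        show ((1 : A) : G) * (u : G) * ((1 : A) : G)⁻¹ = u
        simp)
      mul_smul := fun s t u => Subtype.ext (by
        show ((s * t : A) : G) * (u : G) * ((s * t : A) : G)⁻¹ =
          (s : G) * ((t : G) * u * (t : G)⁻¹) * (s : G)⁻¹
        rw [Subgroup.coe_mul]; group) }
  have h1 := hA.card_modEq_card_fixedPoints W
  have h2 : Nat.card (MulAction.fixedPoints A W) = 1 := by
    rw [Nat.card_eq_one_iff_unique]
    refine ⟨⟨?_⟩, ⟨⟨1, ?_⟩⟩⟩
    · have key : ∀ b : W, b ∈ MulAction.fixedPoints A W → b = 1 := by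
        intro b hb
        have h3 : (b : G) ∈ W ⊓ centralizer (A : Set G) := by
          refine Subgroup.mem_inf.2 ⟨b.2, ?_⟩
          rw [mem_centralizer_iff]
          intro t ht
          have h4 : t * (b : G) * t⁻¹ = b := congrArg Subtype.val (hb ⟨t, ht⟩)
          calc t * (b : G) = t * b * t⁻¹ * t := by group
            _ = b * t := by rw [h4]
        rw [hC, mem_bot] at h3
        exact Subtype.ext h3
      rintro ⟨a, ha⟩ ⟨b, hb⟩
      exact Subtype.ext ((key a ha).trans (key b hb).symm)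
    · intro t
      apply Subtype.ext
      show (t : G) * ((1 : W) : G) * (t : G)⁻¹ = ((1 : W) : G)
      simp
  rwa [h2] at h1

end Cfsg.Agent.H251
end

-- part: H251/Half
section
/-!
The concrete situation: `E` elementary abelian of order `4e` (`e = 1, 2`), self-centralizing,
`P = N_G(E)` of order `24e`, `T` a subgroup of order `8e` of `P` with `E ≤ T`, not normal in `P`.
Then `O²(P)` is a `J(T)`-component (if `J(T) = T`).
-/

set_option autoImplicit false
set_option linter.unusedSectionVars false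

namespace Cfsg.Agent.H251

open Cfsg Subgroup
open scoped Pointwise commutatorElement

variable {G : Type*} [Group G] [Finite G]

/-- The concrete situation. -/
structure Half (T E P : Subgroup G) (e : ℕ) : Prop where
  he : e = 1 ∨ e = 2
  le : E ≤ T
  le' : T ≤ P
  nE : P ≤ normalizer (E : Set G)
  cT : Nat.card T = 8 * e
  cE : Nat.card E = 4 * e
  cP : Nat.card P = 24 * e
  el : IsElementaryAbelian 2 E
  cent : centralizer (E : Set G) = E
  nT : ¬ P ≤ normalizer (T : Set G)

namespace Half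

variable {T E P : Subgroup G} {e : ℕ}

theorem epos (h : Half T E P e) : 0 < e := by rcases h.he with h | h <;> omega

theorem comm (h : Half T E P e) {a b : G} (ha : a ∈ E) (hb : b ∈ E) : a * b = b * a :=
  PLocal.ThompsonJ.isElementaryAbelian_comm h.el ha hb

theorem E2 (h : Half T E P e) : IsPGroup 2 E := PLocal.ThompsonJ.isPGroup_of_isElementaryAbelian h.el

theorem T2 (h : Half T E P e) : IsPGroup 2 T := by
  rcases h.he with h1 | h1
  · exact IsPGroup.of_card (n := 3) (by rw [h.cT, h1]; norm_num)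
  · exact IsPGroup.of_card (n := 4) (by rw [h.cT, h1]; norm_num)

theorem exists_three (h : Half T E P e) : ∃ x ∈ P, orderOf x = 3 := by
  have h3 : Fact (Nat.Prime 3) := ⟨Nat.prime_three⟩
  have h1 : 3 ∣ Nat.card P := by rw [h.cP]; exact ⟨8 * e, by ring⟩
  obtain ⟨x, hx⟩ := exists_prime_orderOf_dvd_card' 3 h1
  exact ⟨x, x.2, by rw [← hx]; exact (orderOf_injective P.subtype P.subtype_injective x)⟩

theorem inf_zpowers (h : Half T E P e) {U : Subgroup G} (hU : IsPGroup 2 U) {x : G}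
    (hx : orderOf x = 3) : U ⊓ zpowers x = ⊥ := by
  have h1 : (Nat.card U).Coprime (Nat.card (zpowers x)) := by
    rw [Nat.card_zpowers, hx]
    obtain ⟨n, hn⟩ := IsPGroup.iff_card.1 hU
    rw [hn]
    exact Nat.Coprime.pow_left n (by norm_num)
  exact Subgroup.inf_eq_bot_of_coprime h1

/-- `E⟨x⟩` has order `12e`. -/
theorem card_sup (h : Half T E P e) {x : G} (hxP : x ∈ P) (hx : orderOf x = 3) :
    Nat.card ↥(E ⊔ zpowers x) = 12 * e := by
  have hxn : zpowers x ≤ normalizer (E : Set G) := by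
    rw [zpowers_le]; exact h.nE hxP
  have h1 := card_sup_mul_card_inf hxn
  rw [h.inf_zpowers h.E2 hx, card_bot, mul_one, Nat.card_zpowers, hx, h.cE] at h1
  omega

theorem relIndex_sup (h : Half T E P e) {x : G} (hxP : x ∈ P) (hx : orderOf x = 3) :
    (E ⊔ zpowers x).relIndex P = 2 := by
  have h1 : E ⊔ zpowers x ≤ P := sup_le (h.le.trans h.le') (by rwa [zpowers_le])
  have h2 := card_mul_relIndex h1
  rw [h.card_sup hxP hx, h.cP] at h2
  have := h.epos
  have h3 : 12 * e * (E ⊔ zpowers x).relIndex P = 12 * e * 2 := by rw [h2]; ring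
  exact Nat.eq_of_mul_eq_mul_left (by omega) h3

theorem oddGen_le_sup (h : Half T E P e) {x : G} (hxP : x ∈ P) (hx : orderOf x = 3) :
    oddGen P ≤ E ⊔ zpowers x := by
  have h1 : E ⊔ zpowers x ≤ P := sup_le (h.le.trans h.le') (by rwa [zpowers_le])
  exact oddGen_le_of_relIndex (k := 1)
    (le_normalizer_of_relIndex_two h1 (h.relIndex_sup hxP hx)) (by rw [h.relIndex_sup hxP hx]; norm_num)

theorem mem_oddGen (_h : Half T E P e) {x : G} (hxP : x ∈ P) (hx : orderOf x = 3) :
    x ∈ oddGen P := H251.mem_oddGen hxP (by rw [hx]; decide)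

theorem sup_oddGen (h : Half T E P e) {x : G} (hxP : x ∈ P) (hx : orderOf x = 3) :
    E ⊔ oddGen P = E ⊔ zpowers x := by
  refine le_antisymm (sup_le le_sup_left (h.oddGen_le_sup hxP hx)) (sup_le_sup_left ?_ _)
  rw [zpowers_le]; exact h.mem_oddGen hxP hx

/-- `|O²(P)| = 3 |E ∩ O²(P)|`. -/
theorem card_oddGen (h : Half T E P e) : Nat.card (oddGen P) = 3 * Nat.card ↥(E ⊓ oddGen P) := by
  obtain ⟨x, hxP, hx⟩ := h.exists_three
  have h1 := card_sup_mul_card_inf ((oddGen_le P).trans h.nE)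
  rw [h.sup_oddGen hxP hx, h.card_sup hxP hx, h.cE] at h1
  have := h.epos
  have h3 : 4 * e * Nat.card (oddGen P) = 4 * e * (3 * Nat.card ↥(E ⊓ oddGen P)) := by
    rw [← h1]; ring
  exact Nat.eq_of_mul_eq_mul_left (by omega) h3

theorem pCoreOf_oddGen (h : Half T E P e) : pCoreOf 2 (oddGen P) = E ⊓ oddGen P := by
  have hle : E ⊓ oddGen P ≤ pCoreOf 2 (oddGen P) :=
    le_pCoreOf (h.E2.to_le inf_le_left) inf_le_right
      (le_normalizer_inf ((oddGen_le P).trans h.nE) le_normalizer)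
  refine (Subgroup.eq_of_le_of_card_ge hle ?_).symm
  have h1 := card_mul_relIndex (pCoreOf_le (oddGen P))
  have h2 := card_mul_relIndex hle
  obtain ⟨n, hn⟩ := IsPGroup.iff_card.1 (pCoreOf_isPGroup (oddGen P))
  rw [h.card_oddGen, ← h2, mul_comm 3, mul_assoc] at h1
  have hpos : 0 < Nat.card ↥(E ⊓ oddGen P) := Nat.card_pos
  have h3 := Nat.eq_of_mul_eq_mul_left hpos h1
  -- `[O₂ : E ∩ K] * r = 3` with the first a power of 2
  have h4 : (E ⊓ oddGen P).relIndex (pCoreOf 2 (oddGen P)) ∣ 3 := ⟨_, by rw [h3]⟩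
  rcases (Nat.dvd_prime Nat.prime_three).1 h4 with h5 | h5
  · rw [h5, mul_one] at h2; rw [h2]
  · exfalso
    rw [h5] at h2
    have h6 : 3 ∣ 2 ^ n := by rw [← hn, ← h2]; exact ⟨_, mul_comm _ _⟩
    have := (Nat.Prime.dvd_of_dvd_pow Nat.prime_three h6)
    omega

theorem relIndex_pCoreOf (h : Half T E P e) : (pCoreOf 2 (oddGen P)).relIndex (oddGen P) = 3 := by
  have h1 := card_mul_relIndex (pCoreOf_le (oddGen P))
  rw [h.card_oddGen, h.pCoreOf_oddGen] at h1
  have hpos : 0 < Nat.card ↥(E ⊓ oddGen P) := Nat.card_pos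
  rw [h.pCoreOf_oddGen]
  apply Nat.eq_of_mul_eq_mul_left hpos
  rw [h1]; ring

/-- `T⟨x⟩ = P`, in the form: a subgroup of `P` containing `T` and of order divisible by 3 is `P`. -/
theorem eq_of_ge (h : Half T E P e) {X : Subgroup G} (hTX : T ≤ X) (hXP : X ≤ P)
    (h3 : 3 ∣ Nat.card X) : X = P := by
  apply Subgroup.eq_of_le_of_card_ge hXP
  have h1 : Nat.card T ∣ Nat.card X := Subgroup.card_dvd_of_le hTX
  have h2 : (Nat.card T).Coprime 3 := by
    obtain ⟨n, hn⟩ := IsPGroup.iff_card.1 h.T2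
    rw [hn]
    exact Nat.Coprime.pow_left n (by norm_num)
  have h4 := h2.mul_dvd_of_dvd_of_dvd h1 h3
  rw [h.cT] at h4
  rw [h.cP]
  have := Nat.le_of_dvd Nat.card_pos h4
  omega

theorem sup_T (h : Half T E P e) {x : G} (hxP : x ∈ P) (hx : orderOf x = 3) : T ⊔ zpowers x = P := by
  refine h.eq_of_ge le_sup_left (sup_le h.le' (by rwa [zpowers_le])) ?_
  have : Nat.card (zpowers x) = 3 := by rw [Nat.card_zpowers, hx]
  rw [← this]
  exact Subgroup.card_dvd_of_le le_sup_right

theorem oddGen_sup_T (h : Half T E P e) : oddGen P ⊔ T = P := by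
  obtain ⟨x, hxP, hx⟩ := h.exists_three
  refine le_antisymm (sup_le (oddGen_le P) h.le') ?_
  calc P = T ⊔ zpowers x := (h.sup_T hxP hx).symm
    _ ≤ oddGen P ⊔ T := sup_le le_sup_right (le_sup_of_le_left (by
      rw [zpowers_le]; exact h.mem_oddGen hxP hx))

theorem sylow (h : Half T E P e) : IsSylowTwoIn T P := by
  refine ⟨h.le', h.T2, ?_⟩
  have h1 := card_mul_relIndex h.le'
  rw [h.cT, h.cP] at h1
  have h2 : T.relIndex P = 3 := by
    have := h.epos
    apply Nat.eq_of_mul_eq_mul_left (show 0 < 8 * e by omega)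
    rw [h1]; ring
  rw [h2]; decide

theorem commutator_eq (h : Half T E P e) : ⁅oddGen P, T⁆ = oddGen P := by
  obtain ⟨x, hxP, hx⟩ := h.exists_three
  have hTn : T ≤ normalizer (oddGen P : Set G) := h.le'.trans (le_normalizer_oddGen P)
  have hle : ⁅oddGen P, T⁆ ≤ oddGen P := commutator_le_iff_le_normalizer.2 hTn
  refine le_antisymm hle ?_
  have hn : P ≤ normalizer ((⁅oddGen P, T⁆ : Subgroup G) : Set G) := by
    conv_lhs => rw [← h.oddGen_sup_T]
    exact sup_le (Lib.CoprimeCommutator.left_le_normalizer_commutator _ _)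
      (Lib.CoprimeCommutator.right_le_normalizer_commutator _ _)
  -- 3 divides the order of the commutator
  have h3 : 3 ∣ Nat.card (⁅oddGen P, T⁆ : Subgroup G) := by
    by_contra hcon
    have hcard : Nat.card (⁅oddGen P, T⁆ : Subgroup G) ∣ 3 * (8 * e) := by
      have : 3 * (8 * e) = Nat.card P := by rw [h.cP]; ring
      rw [this]
      exact Subgroup.card_dvd_of_le (hle.trans (oddGen_le P))
    have hcop : (Nat.card (⁅oddGen P, T⁆ : Subgroup G)).Coprime 3 :=
      ((Nat.Prime.coprime_iff_not_dvd Nat.prime_three).2 hcon).symm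
    have h4 := hcop.dvd_of_dvd_mul_left hcard
    have h5 : IsPGroup 2 (⁅oddGen P, T⁆ : Subgroup G) := by
      obtain ⟨n, hn⟩ := IsPGroup.iff_card.1 h.T2
      rw [← h.cT, hn] at h4
      obtain ⟨m, -, hm⟩ := (Nat.dvd_prime_pow Nat.prime_two).1 h4
      exact IsPGroup.of_card hm
    have h6 : ⁅oddGen P, T⁆ ≤ E := by
      have := le_pCoreOf h5 hle ((oddGen_le P).trans hn)
      rw [h.pCoreOf_oddGen] at this
      exact this.trans inf_le_left
    apply h.nT
    conv_lhs => rw [← h.sup_T hxP hx]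
    refine sup_le le_normalizer ?_
    rw [← commutator_le_iff_le_normalizer, commutator_comm]
    refine (commutator_mono ?_ le_rfl).trans (h6.trans h.le)
    rw [zpowers_le]; exact h.mem_oddGen hxP hx
  have h7 : (⁅oddGen P, T⁆ : Subgroup G).relIndex P ∣ 8 * e := by
    have h8 := card_mul_relIndex (hle.trans (oddGen_le P))
    obtain ⟨m, hm⟩ := h3
    rw [h.cP, hm] at h8
    exact ⟨m, by nlinarith⟩
  obtain ⟨n, hn'⟩ := IsPGroup.iff_card.1 h.T2
  rw [← h.cT, hn'] at h7
  exact oddGen_le_of_relIndex hn h7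

/-! ### the four-group `[E, x]` -/

theorem coprime_E (h : Half T E P e) {x : G} (hx : orderOf x = 3) :
    (Nat.card (zpowers x)).Coprime (Nat.card E) := by
  rw [Nat.card_zpowers, hx, h.cE]
  rcases h.he with h1 | h1 <;> rw [h1] <;> norm_num

theorem zpowers_le_nE (h : Half T E P e) {x : G} (hxP : x ∈ P) :
    zpowers x ≤ normalizer (E : Set G) := by
  rw [zpowers_le]; exact h.nE hxP

theorem fix_inf (h : Half T E P e) {x : G} (hxP : x ∈ P) (hx : orderOf x = 3) :
    (E ⊓ centralizer (zpowers x : Set G)) ⊓ ⁅E, zpowers x⁆ = ⊥ :=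
  Lib.CoprimeAbelian.inf_commutator_eq_bot _ _ (fun _ ha _ hb => h.comm ha hb)
    (h.zpowers_le_nE hxP) (h.coprime_E hx)

theorem fix_sup (h : Half T E P e) {x : G} (hxP : x ∈ P) (hx : orderOf x = 3) :
    (E ⊓ centralizer (zpowers x : Set G)) ⊔ ⁅E, zpowers x⁆ = E :=
  Lib.CoprimeAbelian.sup_commutator_eq _ _ (fun _ ha _ hb => h.comm ha hb)
    (h.zpowers_le_nE hxP) (h.coprime_E hx)

theorem comm_le_E (h : Half T E P e) {x : G} (hxP : x ∈ P) : ⁅E, zpowers x⁆ ≤ E :=
  commutator_le_iff_le_normalizer.2 (h.zpowers_le_nE hxP)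

theorem card_comm (h : Half T E P e) {x : G} (hxP : x ∈ P) (hx : orderOf x = 3) :
    Nat.card (⁅E, zpowers x⁆ : Subgroup G) = 4 := by
  have h3 : Fact (Nat.Prime 3) := ⟨Nat.prime_three⟩
  have h1 : Nat.card (⁅E, zpowers x⁆ : Subgroup G) ≡ 1 [MOD 3] := by
    apply card_modEq_one (A := zpowers x)
    · exact IsPGroup.of_card (n := 1) (by rw [Nat.card_zpowers, hx]; norm_num)
    · exact Lib.CoprimeCommutator.right_le_normalizer_commutator _ _
    · rw [eq_bot_iff, ← h.fix_inf hxP hx]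
      intro y hy
      exact ⟨⟨h.comm_le_E hxP hy.1, hy.2⟩, hy.1⟩
  have h2 : Nat.card (⁅E, zpowers x⁆ : Subgroup G) ∣ 4 * e := by
    rw [← h.cE]; exact Subgroup.card_dvd_of_le (h.comm_le_E hxP)
  have h4 : Nat.card (⁅E, zpowers x⁆ : Subgroup G) ≠ 1 := by
    intro h5
    rw [Subgroup.card_eq_one] at h5
    have h6 : zpowers x ≤ centralizer (E : Set G) := by
      rw [commutator_comm, commutator_eq_bot_iff_le_centralizer] at h5
      exact h5
    rw [h.cent] at h6
    have h7 := h.inf_zpowers h.E2 hx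
    rw [inf_eq_right.2 h6] at h7
    rw [zpowers_eq_bot] at h7
    rw [h7, orderOf_one] at hx
    omega
  have h5 : Nat.card (⁅E, zpowers x⁆ : Subgroup G) ∣ 8 := by
    rcases h.he with h6 | h6
    · rw [h6] at h2; exact h2.trans (by norm_num)
    · rw [h6] at h2; exact h2
  have h6 : Nat.card (⁅E, zpowers x⁆ : Subgroup G) ∈ Nat.divisors 8 := by
    rw [Nat.mem_divisors]; exact ⟨h5, by norm_num⟩
  have h7 : Nat.divisors 8 = {1, 2, 4, 8} := by decide
  rw [h7] at h6
  simp only [Finset.mem_insert, Finset.mem_singleton] at h6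
  rcases h6 with h8 | h8 | h8 | h8
  · exact absurd h8 h4
  · rw [h8] at h1; exact absurd h1 (by decide)
  · exact h8
  · rw [h8] at h1; exact absurd h1 (by decide)

/-- `[E, O²(P)] = [E, x]`. -/
theorem comm_oddGen (h : Half T E P e) {x : G} (hxP : x ∈ P) (hx : orderOf x = 3) :
    ⁅E, oddGen P⁆ ≤ ⁅E, zpowers x⁆ := by
  rw [commutator_le]
  intro a ha g hg
  have hg' := h.oddGen_le_sup hxP hx hg
  rw [mem_sup_iff (h.zpowers_le_nE hxP)] at hg'
  obtain ⟨b, hb, y, hy, rfl⟩ := hg'
  have h1 : ⁅a, b * y⁆ = ⁅a, b⁆ * (b * ⁅a, y⁆ * b⁻¹) := by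
    simp only [commutatorElement_def]; group
  have h2 : ⁅a, b⁆ = 1 := commutatorElement_eq_one_iff_mul_comm.2 (h.comm ha hb)
  have h3 : ⁅a, y⁆ ∈ E := h.comm_le_E hxP (commutator_mem_commutator ha hy)
  have h4 : b * ⁅a, y⁆ * b⁻¹ = ⁅a, y⁆ := by rw [h.comm hb h3]; group
  rw [h1, h2, one_mul, h4]
  exact commutator_mem_commutator ha hy

theorem omegaCenterOf_eq {X : Subgroup G} (hX : IsElementaryAbelian 2 X) : omegaCenterOf X = X := by
  refine le_antisymm (omegaCenterOf_le X) fun x hx => ?_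
  rw [mem_omegaCenterOf]
  refine ⟨hx, ?_, hX.2 x hx⟩
  rw [mem_centralizer_iff]
  intro y hy
  exact PLocal.ThompsonJ.isElementaryAbelian_comm hX hy hx

theorem wOf_eq (h : Half T E P e) {x : G} (hxP : x ∈ P) (hx : orderOf x = 3) :
    wOf (oddGen P) = ⁅E, zpowers x⁆ := by
  have hxK : zpowers x ≤ oddGen P := by rw [zpowers_le]; exact h.mem_oddGen hxP hx
  rw [wOf, h.pCoreOf_oddGen,
    omegaCenterOf_eq (PLocal.ThompsonJ.isElementaryAbelian_mono h.el inf_le_left)]
  refine le_antisymm ((commutator_mono inf_le_left le_rfl).trans (h.comm_oddGen hxP hx)) ?_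
  have h1 : ⁅E, zpowers x⁆ ≤ E ⊓ oddGen P := by
    refine le_inf (h.comm_le_E hxP) ?_
    refine (commutator_mono (h.le.trans h.le') hxK).trans ?_
    rw [commutator_comm]
    exact commutator_le_iff_le_normalizer.2 (le_normalizer_oddGen P)
  calc ⁅E, zpowers x⁆ = ⁅⁅E, zpowers x⁆, zpowers x⁆ :=
        (Lib.CoprimeCommutator.commutator_commutator_eq _ _ (h.zpowers_le_nE hxP)
          (h.coprime_E hx)).symm
    _ ≤ ⁅E ⊓ oddGen P, oddGen P⁆ := commutator_mono h1 hxK

theorem isJComponent (h : Half T E P e) (hJ : thompsonSubgroupOf 2 T = T) :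
    IsJComponent T (oddGen P) := by
  obtain ⟨x, hxP, hx⟩ := h.exists_three
  refine ⟨oddGen_oddGen P, by rw [hJ]; exact h.commutator_eq, h.relIndex_pCoreOf, ?_, ?_, ?_⟩
  · rw [hJ, h.oddGen_sup_T]
    intro S hS hTS
    rw [← h.sylow.2.1.to_le le_rfl |> fun _ => syl_eq_of_le h.sylow hS.2.1 hS.1 hTS, hJ]
  · rw [h.wOf_eq hxP hx, h.card_comm hxP hx]
  · rw [h.wOf_eq hxP hx]
    intro w hw
    rw [← pow_two]
    exact h.el.2 w (h.comm_le_E hxP hw)

end Half

end Cfsg.Agent.H251
end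

-- part: H251/TStar
section
/-!
Elementary facts on `T ∈ 𝒯*(M)` (`maxStraddlingTwoSubgroups M`).
-/

set_option autoImplicit false
set_option linter.unusedSectionVars false

namespace Cfsg.Agent.H251

open Cfsg Subgroup
open scoped Pointwise commutatorElement

variable {G : Type*} [Group G] [Finite G] {S M : Subgroup G}

/-- If `T ∈ 𝒯*(M)`, `J(T) ≤ U ∈ 𝒯(M)`, then `J(U) = J(T)`. -/
theorem J_eq_of_mem_straddling {T U : Subgroup G} (hT : T ∈ maxStraddlingTwoSubgroups M)
    (hU : U ∈ straddlingTwoSubgroups M) (hJ : thompsonSubgroupOf 2 T ≤ U) :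
    thompsonSubgroupOf 2 T = thompsonSubgroupOf 2 U := by
  obtain ⟨h1, h2⟩ := hT.2 U hU
  have h3 : maxElemAbelianOrder U = maxElemAbelianOrder T := le_antisymm h1 (a_le_of_J_le hJ)
  exact J_eq_of_le_of_card hJ h3.le (h2 h3).1

/-- Moreover `|U| ≤ |T|`. -/
theorem card_le_of_mem_straddling {T U : Subgroup G} (hT : T ∈ maxStraddlingTwoSubgroups M)
    (hU : U ∈ straddlingTwoSubgroups M) (hJ : thompsonSubgroupOf 2 T ≤ U) :
    Nat.card U ≤ Nat.card T := by
  obtain ⟨h1, h2⟩ := hT.2 U hU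
  have h3 : maxElemAbelianOrder U = maxElemAbelianOrder T := le_antisymm h1 (a_le_of_J_le hJ)
  refine (h2 h3).2 ?_
  rw [J_eq_of_mem_straddling hT hU hJ]

/-- If `T ∈ 𝒯*(M)`, `T ≤ U ∈ 𝒯(M)`, then `T = U`. -/
theorem eq_of_mem_straddling {T U : Subgroup G} (hT : T ∈ maxStraddlingTwoSubgroups M)
    (hU : U ∈ straddlingTwoSubgroups M) (hTU : T ≤ U) : T = U :=
  Subgroup.eq_of_le_of_card_ge hTU (card_le_of_mem_straddling hT hU ((J_le T).trans hTU))

/-- `𝒯(M)` is closed under nontrivial subgroups. -/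
theorem straddling_of_le {T U : Subgroup G} (hT : T ∈ straddlingTwoSubgroups M) (hUT : U ≤ T)
    (hU : U ≠ ⊥) : U ∈ straddlingTwoSubgroups M := by
  obtain ⟨h1, h2, h3, L, hL, hTL, hLM⟩ := hT
  exact ⟨h1.to_le hUT, hU, hUT.trans h3, L, hL, hUT.trans hTL, hLM⟩

/-- `N_G(J(T)) ≤ M` for `T ∈ 𝒯*(M)`. -/
theorem normalizer_J_le (h : MSetup S M) {T : Subgroup G} (hT : T ∈ maxStraddlingTwoSubgroups M) :
    normalizer (thompsonSubgroupOf 2 T : Set G) ≤ M := by
  by_contra hcon
  obtain ⟨hTp, hT1, hTM, -⟩ := hT.1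
  obtain ⟨m, hm, hTS⟩ := h.exists_le_cj hTp hTM
  have h' := h.conj hm
  set S' := cj m S with hS'
  have hJ2 : IsPGroup 2 (thompsonSubgroupOf 2 T) := hTp.to_le (J_le T)
  have hU : S' ⊓ normalizer (thompsonSubgroupOf 2 T : Set G) ∈ straddlingTwoSubgroups M := by
    refine ⟨h'.syl.2.1.to_le inf_le_left, ?_, inf_le_left.trans h'.S_le,
      normalizer (thompsonSubgroupOf 2 T : Set G), isTwoLocal_normalizer hJ2 (J_ne_bot hTp hT1),
      inf_le_right, hcon⟩
    intro h1
    apply hT1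
    rw [eq_bot_iff, ← h1]
    exact le_inf hTS (le_normalizer_J T)
  have h2 := eq_of_mem_straddling hT hU (le_inf hTS (le_normalizer_J T))
  rcases hTS.lt_or_eq with h3 | h3
  · have h4 := lt_normalizer_inf h'.syl.2.1 h3
    have h5 : S' ⊓ normalizer (T : Set G) ≤ T := by
      conv_rhs => rw [h2]
      exact inf_le_inf_left _ (normalizer_le_normalizer_J T)
    exact absurd h5 (not_le_of_gt h4)
  · apply hcon
    rw [h3]
    exact h'.nJ

/-- Facts on a Sylow 2-subgroup `T₀ ≥ J(T)` of a 2-local `L ≰ M`, for `T ∈ 𝒯*(M)`. -/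
theorem of_twoLocal (h : MSetup S M) {T : Subgroup G} (hT : T ∈ maxStraddlingTwoSubgroups M)
    {L : Subgroup G} (hL : IsTwoLocal L) (hLM : ¬ L ≤ M) {T₀ : Subgroup G}
    (hT₀ : IsSylowTwoIn T₀ L) (hJ : thompsonSubgroupOf 2 T ≤ T₀) :
    thompsonSubgroupOf 2 T = thompsonSubgroupOf 2 T₀ ∧ T₀ ∈ straddlingTwoSubgroups M ∧
      L ∈ jOvergroups T₀ := by
  obtain ⟨hTp, hT1, hTM, -⟩ := hT.1
  have hN := normalizer_J_le h hT
  have hJ1 := J_ne_bot hTp hT1
  -- `U = N_{T₀}(J(T))`
  have hU : T₀ ⊓ normalizer (thompsonSubgroupOf 2 T : Set G) ∈ straddlingTwoSubgroups M := by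
    refine ⟨hT₀.2.1.to_le inf_le_left, ?_, inf_le_right.trans hN, L, hL, inf_le_left.trans hT₀.1, hLM⟩
    intro h1
    apply hJ1
    rw [eq_bot_iff, ← h1]
    exact le_inf hJ le_normalizer
  have h2 := J_eq_of_mem_straddling hT hU (le_inf hJ le_normalizer)
  have h3 : T₀ ⊓ normalizer (thompsonSubgroupOf 2 T : Set G) = T₀ := by
    rcases (inf_le_left : T₀ ⊓ normalizer (thompsonSubgroupOf 2 T : Set G) ≤ T₀).lt_or_eq with h4 | h4
    · have h5 := lt_normalizer_inf hT₀.2.1 h4
      exfalso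
      apply not_le_of_gt h5
      refine le_inf inf_le_left (inf_le_right.trans ?_)
      have h6 := normalizer_le_normalizer_J (T₀ ⊓ normalizer (thompsonSubgroupOf 2 T : Set G))
      rwa [← h2] at h6
    · exact h4
  rw [h3] at h2 hU
  refine ⟨h2, hU, hT₀, ?_, centralizer_pCoreOf_le h.zn.char2 hL⟩
  intro h4
  apply hLM
  have h5 : thompsonSubgroupOf 2 (pCoreOf 2 L) = thompsonSubgroupOf 2 T₀ :=
    J_eq_of_le h4 (pCoreOf_le_of_isSylow hT₀)
  calc L ≤ normalizer (pCoreOf 2 L : Set G) := le_normalizer_pCoreOf L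
    _ ≤ normalizer (thompsonSubgroupOf 2 (pCoreOf 2 L) : Set G) := normalizer_le_normalizer_J _
    _ = normalizer (thompsonSubgroupOf 2 T : Set G) := by rw [h5, h2]
    _ ≤ M := hN

/-- If `T ∈ 𝒯*(M)` lies in a 2-local `L ≰ M` then it is Sylow in `L`. -/
theorem sylow_of_twoLocal (h : MSetup S M) {T : Subgroup G} (hT : T ∈ maxStraddlingTwoSubgroups M)
    {L : Subgroup G} (hL : IsTwoLocal L) (hLM : ¬ L ≤ M) (hTL : T ≤ L) :
    IsSylowTwoIn T L ∧ L ∈ jOvergroups T := by
  obtain ⟨T₀, hT₀, hTT₀⟩ := exists_isSylowTwoIn_ge hT.1.1 hTL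
  obtain ⟨-, h2, h3⟩ := of_twoLocal h hT hL hLM hT₀ ((J_le T).trans hTT₀)
  have h4 := eq_of_mem_straddling hT h2 hTT₀
  rw [h4]
  exact ⟨hT₀, h3⟩

end Cfsg.Agent.H251
end

-- part: H251/FromStruct
section
/-!
Consequences of the concrete structure (`TData`) of `T ∈ 𝒯*(M)` in a ZN-group of characteristic
2 type.
-/

set_option autoImplicit false
set_option linter.unusedSectionVars false

namespace Cfsg.Agent.H251

open Cfsg Subgroup
open scoped Pointwise commutatorElement

variable {G : Type*} [Group G] [Finite G]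

/-- One of the two vertices of the amalgam. -/
structure Side (E : Subgroup G) (e : ℕ) : Prop where
  el : IsElementaryAbelian 2 E
  card : Nat.card E = 4 * e
  cent : centralizer (E : Set G) = E
  cardN : Nat.card (normalizer (E : Set G)) = 24 * e
  max : IsMaximalTwoLocal (normalizer (E : Set G))

/-- The concrete structure at `T`. -/
structure TData (M T : Subgroup G) (e : ℕ) (E₁ E₂ : Subgroup G) : Prop where
  he : e = 1 ∨ e = 2
  ne : E₁ ≠ E₂
  eq : T = E₁ ⊔ E₂
  J : thompsonSubgroupOf 2 T = T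
  s₁ : Side E₁ e
  s₂ : Side E₂ e
  all : ∀ X : Subgroup G, IsTwoLocal X → T ≤ X → ¬ X ≤ M →
    X = normalizer (E₁ : Set G) ∨ X = normalizer (E₂ : Set G)

variable {S M T : Subgroup G} {e : ℕ} {E₁ E₂ : Subgroup G}

theorem TData.symm (d : TData M T e E₁ E₂) : TData M T e E₂ E₁ :=
  ⟨d.he, d.ne.symm, by rw [sup_comm]; exact d.eq, d.J, d.s₂, d.s₁, fun X h1 h2 h3 =>
    (d.all X h1 h2 h3).symm⟩

theorem TData.le₁ (d : TData M T e E₁ E₂) : E₁ ≤ T := by rw [d.eq]; exact le_sup_left

theorem TData.le₂ (d : TData M T e E₁ E₂) : E₂ ≤ T := by rw [d.eq]; exact le_sup_right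

/-- The one-sided situation. -/
theorem half_of (h : MSetup S M) (hT : T ∈ maxStraddlingTwoSubgroups M) (d : TData M T e E₁ E₂)
    (hTN : T ≤ normalizer (E₁ : Set G)) (hN : ¬ normalizer (E₁ : Set G) ≤ M) :
    Half T E₁ (normalizer (E₁ : Set G)) e := by
  obtain ⟨hsyl, -⟩ := sylow_of_twoLocal h hT d.s₁.max.1 hN hTN
  refine ⟨d.he, d.le₁, hTN, le_rfl, ?_, d.s₁.card, d.s₁.cardN, d.s₁.el, d.s₁.cent, ?_⟩
  · have h1 := card_mul_relIndex hsyl.1
    rw [d.s₁.cardN] at h1
    obtain ⟨n, hn⟩ := IsPGroup.iff_card.1 hsyl.2.1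
    have hodd := hsyl.2.2
    -- `2^n * odd = 24 e`
    have h2 : (2 ^ n) ∣ 8 * e := by
      have h3 : (2 ^ n) ∣ (8 * e) * 3 := ⟨T.relIndex (normalizer (E₁ : Set G)), by
        rw [← hn, h1]; ring⟩
      exact (Nat.Coprime.pow_left n (by norm_num)).dvd_of_dvd_mul_right h3
    have h4 : 8 * e ∣ 2 ^ n := by
      have h5 : 8 * e ∣ 2 ^ n * T.relIndex (normalizer (E₁ : Set G)) := by
        rw [← hn, h1]; exact ⟨3, by ring⟩
      have h6 : (8 * e).Coprime (T.relIndex (normalizer (E₁ : Set G))) := by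
        have h7 : Nat.Coprime 2 (T.relIndex (normalizer (E₁ : Set G))) :=
          (Nat.coprime_two_left).2 hodd
        rcases d.he with h8 | h8
        · rw [h8]; exact Nat.Coprime.pow_left 3 h7
        · rw [h8]; exact Nat.Coprime.pow_left 4 h7
      exact h6.dvd_of_dvd_mul_right h5
    rw [hn]
    exact Nat.dvd_antisymm h2 h4
  · intro hcon
    exact hN (hcon.trans ((normalizer_le_normalizer_J T).trans (normalizer_J_le h hT)))

/-- For a 2-local `X ≥ T`, `X ≰ M`: `X` is one of the two, up to symmetry the first one. -/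
theorem exists_half (h : MSetup S M) (hT : T ∈ maxStraddlingTwoSubgroups M)
    (d : TData M T e E₁ E₂) {X : Subgroup G} (hX : IsTwoLocal X) (hTX : T ≤ X) (hXM : ¬ X ≤ M) :
    ∃ E E' : Subgroup G, TData M T e E E' ∧ X = normalizer (E : Set G) ∧ Half T E X e ∧
      IsMaximalTwoLocal X := by
  rcases d.all X hX hTX hXM with rfl | rfl
  · exact ⟨E₁, E₂, d, rfl, half_of h hT d hTX hXM, d.s₁.max⟩
  · exact ⟨E₂, E₁, d.symm, rfl, half_of h hT d.symm hTX hXM, d.s₂.max⟩

/-! ### S2948 -/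

theorem exists_isJComponent (h : MSetup S M) (hT : T ∈ maxStraddlingTwoSubgroups M)
    (d : TData M T e E₁ E₂) {X : Subgroup G} (hX : IsTwoLocal X) (hTX : T ≤ X) (hXM : ¬ X ≤ M) :
    ∃ K : Subgroup G, IsJComponent T K ∧ K ≤ X := by
  obtain ⟨E, E', -, -, hh, -⟩ := exists_half h hT d hX hTX hXM
  exact ⟨oddGen X, hh.isJComponent d.J, oddGen_le X⟩

/-! ### S2949 -/

theorem exists_outside (h : MSetup S M) (hT : T ∈ maxStraddlingTwoSubgroups M)
    (d : TData M T e E₁ E₂) : (jComponentsOutside M T).Nonempty := by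
  obtain ⟨-, -, -, X, hX, hTX, hXM⟩ := hT.1
  obtain ⟨E, E', -, -, hh, hmax⟩ := exists_half h hT d hX hTX hXM
  have hJ := hh.isJComponent d.J
  have hW2 : IsPGroup 2 (wOf (oddGen X)) :=
    isPGroup_of_pow_two fun w hw => by rw [pow_two]; exact hJ.2.2.2.2.2 w hw
  have hW1 : wOf (oddGen X) ≠ ⊥ := by
    intro h1
    have h2 := hJ.2.2.2.2.1
    rw [h1, card_bot] at h2
    omega
  have hXn : X ≤ normalizer (wOf (oddGen X) : Set G) := by
    have h1 : X ≤ normalizer (oddGen X : Set G) := le_normalizer_oddGen X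
    exact le_normalizer_commutator
      (h1.trans ((normalizer_le_normalizer_pCoreOf _).trans (normalizer_le_normalizer_omegaCenterOf _)))
      h1
  have hXW : normalizer (wOf (oddGen X) : Set G) = X :=
    hmax.2 _ (isTwoLocal_normalizer hW2 hW1) hXn
  refine ⟨oddGen X, ⟨hJ, ?_⟩, ?_, ?_⟩
  · intro S' hS' hsyl
    rw [hXW] at hsyl
    rw [d.J] at hS'
    rw [← syl_eq_of_le hh.sylow hsyl.2.1 hsyl.1 hS']
  · intro hKM
    apply hXM
    rw [← hh.oddGen_sup_T]
    exact sup_le hKM hT.1.2.2.1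
  · rw [hh.oddGen_sup_T]
    exact pCoreOf_ne_bot_of_isTwoLocal hX

/-! ### S2950 -/

/-- For `K ∈ 𝒦(M, T)`, `L = K T` is a maximal 2-local subgroup. -/
theorem exists_L (h : MSetup S M) (hT : T ∈ maxStraddlingTwoSubgroups M)
    (d : TData M T e E₁ E₂) {K : Subgroup G} (hK : K ∈ jComponentsOutside M T) :
    ∃ E E' : Subgroup G, TData M T e E E' ∧ K ⊔ T = normalizer (E : Set G) ∧
      Half T E (K ⊔ T) e ∧ IsMaximalTwoLocal (K ⊔ T) ∧ K ⊔ T ≤ normalizer (K : Set G) := by
  obtain ⟨⟨hJ, hK0⟩, hKM, hO⟩ := hK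
  set X := normalizer (pCoreOf 2 (K ⊔ T) : Set G) with hXdef
  have hX : IsTwoLocal X := isTwoLocal_normalizer (pCoreOf_isPGroup _) hO
  have hKTX : K ⊔ T ≤ X := le_normalizer_pCoreOf _
  have hXM : ¬ X ≤ M := fun h1 => hKM ((le_sup_left.trans hKTX).trans h1)
  obtain ⟨E, E', d', hE, hh, hmax⟩ := exists_half h hT d hX (le_sup_right.trans hKTX) hXM
  have h3 : 3 ∣ Nat.card ↥(K ⊔ T) := by
    have h4 := card_mul_relIndex (pCoreOf_le K)
    rw [hJ.2.2.1] at h4
    have h5 : 3 ∣ Nat.card K := ⟨_, by rw [← h4]; ring⟩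
    exact h5.trans (Subgroup.card_dvd_of_le le_sup_left)
  have hXeq : K ⊔ T = X := hh.eq_of_ge le_sup_right hKTX h3
  refine ⟨E, E', d', by rw [hXeq, hE], by rw [hXeq]; exact hh, by rw [hXeq]; exact hmax, ?_⟩
  refine sup_le le_normalizer ?_
  have h6 := Lib.CoprimeCommutator.right_le_normalizer_commutator K (thompsonSubgroupOf 2 T)
  rw [hJ.2.1, d.J] at h6
  exact h6

theorem outside_unique (h : MSetup S M) (hT : T ∈ maxStraddlingTwoSubgroups M)
    (d : TData M T e E₁ E₂) {K : Subgroup G} (hK : K ∈ jComponentsOutside M T) :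
    ∃ L : Subgroup G, IsMaximalTwoLocal L ∧ K ⊔ thompsonSubgroupOf 2 T ≤ L ∧
      (∀ L' : Subgroup G, IsMaximalTwoLocal L' → K ⊔ thompsonSubgroupOf 2 T ≤ L' → L' = L) ∧
      (K.subgroupOf L).IsSubnormal ∧ IsSylowTwoIn T L := by
  obtain ⟨E, E', -, -, hh, hmax, hn⟩ := exists_L h hT d hK
  rw [d.J]
  refine ⟨K ⊔ T, hmax, le_rfl, fun L' hL' hle => hmax.2 L' hL'.1 hle, ?_, hh.sylow⟩
  exact (normal_subgroupOf_of_le_normalizer hn).isSubnormal

/-! ### S2951 -/

/-- `Ω₁(Z(T)) = E₁ ∩ E₂`. -/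
theorem TData.omega (d : TData M T e E₁ E₂) : omegaCenterOf T = E₁ ⊓ E₂ := by
  ext x
  rw [mem_omegaCenterOf, Subgroup.mem_inf]
  constructor
  · rintro ⟨-, h1, -⟩
    constructor
    · rw [← d.s₁.cent]; exact centralizer_le (show (E₁ : Set G) ⊆ _ from d.le₁) h1
    · rw [← d.s₂.cent]; exact centralizer_le (show (E₂ : Set G) ⊆ _ from d.le₂) h1
  · rintro ⟨h1, h2⟩
    refine ⟨d.le₁ h1, ?_, d.s₁.el.2 x h1⟩
    have h3 : T ≤ centralizer ({x} : Set G) := by
      rw [d.eq]
      refine sup_le ?_ ?_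
      · intro y hy
        rw [mem_centralizer_iff]
        rintro z rfl
        exact PLocal.ThompsonJ.isElementaryAbelian_comm d.s₁.el h1 hy
      · intro y hy
        rw [mem_centralizer_iff]
        rintro z rfl
        exact PLocal.ThompsonJ.isElementaryAbelian_comm d.s₂.el h2 hy
    rw [mem_centralizer_iff]
    intro y hy
    exact (mem_centralizer_iff.1 (h3 hy) x rfl).symm

theorem TData.card_inf (d : TData M T e E₁ E₂) (hcT : Nat.card T = 8 * e)
    (hn : T ≤ normalizer (E₁ : Set G)) : Nat.card ↥(E₁ ⊓ E₂) = 2 * e := by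
  have h1 := card_sup_mul_card_inf (d.le₂.trans hn)
  rw [← d.eq, hcT, d.s₁.card, d.s₂.card] at h1
  have he : 0 < e := by rcases d.he with h | h <;> omega
  have h2 : 8 * e * Nat.card ↥(E₁ ⊓ E₂) = 8 * e * (2 * e) := by rw [h1]; ring
  exact Nat.eq_of_mul_eq_mul_left (by omega) h2

/-- All involutions of `T` lie in `E₁ ∪ E₂`. -/
theorem TData.mem_or (d : TData M T e E₁ E₂) (hcT : Nat.card T = 8 * e)
    (hn : T ≤ normalizer (E₁ : Set G)) {t : G} (ht : t ∈ T) (ht2 : t ^ 2 = 1) :
    t ∈ E₁ ∨ t ∈ E₂ := by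
  rw [d.eq, mem_sup_iff (d.le₂.trans hn)] at ht
  obtain ⟨a, ha, b, hb, rfl⟩ := ht
  by_cases hab : a * b = b * a
  · -- `b` commutes with `a`
    by_cases hb1 : b ∈ E₁
    · left; exact E₁.mul_mem ha hb1
    · right
      -- `a` centralizes `E₂ = (E₁ ∩ E₂)⟨b⟩`
      refine E₂.mul_mem ?_ hb
      rw [← d.s₂.cent, mem_centralizer_iff]
      have hidx : (E₁ ⊓ E₂).relIndex E₂ = 2 := by
        have h1 := card_mul_relIndex (inf_le_right : E₁ ⊓ E₂ ≤ E₂)
        rw [d.card_inf hcT hn, d.s₂.card] at h1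
        have he : 0 < e := by rcases d.he with h | h <;> omega
        apply Nat.eq_of_mul_eq_mul_left (show 0 < 2 * e by omega)
        rw [h1]; ring
      have hbn : b ∉ E₁ ⊓ E₂ := fun h => hb1 h.1
      intro y hy
      by_cases hy1 : y ∈ E₁
      · exact PLocal.ThompsonJ.isElementaryAbelian_comm d.s₁.el hy1 ha
      · have h2 : y * b ∈ E₁ ⊓ E₂ := by
          rw [relIndex_eq_two_iff] at hidx
          obtain ⟨c, hc, hc'⟩ := hidx
          have hy' : y ∉ E₁ ⊓ E₂ := fun h => hy1 h.1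
          have h3 : y * c ∈ E₁ ⊓ E₂ := by
            rcases hc' y hy with ⟨h, -⟩ | ⟨h, -⟩
            · exact h
            · exact absurd h hy'
          have h4 : b * c ∈ E₁ ⊓ E₂ := by
            rcases hc' b hb with ⟨h, -⟩ | ⟨h, -⟩
            · exact h
            · exact absurd h hbn
          have h5 := (E₁ ⊓ E₂).mul_mem h3 ((E₁ ⊓ E₂).inv_mem h4)
          have h6 : y * c * (b * c)⁻¹ = y * b := by
            have hbb : b⁻¹ = b := by
              have := d.s₂.el.2 b hb
              rw [pow_two] at this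
              exact inv_eq_of_mul_eq_one_left this
            calc y * c * (b * c)⁻¹ = y * b⁻¹ := by group
              _ = y * b := by rw [hbb]
          rwa [h6] at h5
        have h3 : y = (y * b) * b⁻¹ := by group
        have h4 : (y * b) * a = a * (y * b) :=
          PLocal.ThompsonJ.isElementaryAbelian_comm d.s₁.el h2.1 ha
        have h5 : b⁻¹ * a = a * b⁻¹ := by
          calc b⁻¹ * a = b⁻¹ * (a * b) * b⁻¹ := by group
            _ = b⁻¹ * (b * a) * b⁻¹ := by rw [hab]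
            _ = a * b⁻¹ := by group
        calc y * a = (y * b) * (b⁻¹ * a) := by group
          _ = (y * b) * (a * b⁻¹) := by rw [h5]
          _ = ((y * b) * a) * b⁻¹ := by group
          _ = (a * (y * b)) * b⁻¹ := by rw [h4]
          _ = a * y := by group
  · exfalso
    apply hab
    have ha2 : a * a = 1 := by rw [← pow_two]; exact d.s₁.el.2 a ha
    have hb2 : b * b = 1 := by rw [← pow_two]; exact d.s₂.el.2 b hb
    have hab2 : a * b * (a * b) = 1 := by rw [← pow_two]; exact ht2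
    calc a * b = (a * a) * a * b * (b * b) := by rw [ha2, hb2]; group
      _ = a * (a * (a * b) * b) * b := by group
      _ = b * a := by
        have h1 : (a * b)⁻¹ = a * b := inv_eq_of_mul_eq_one_left hab2
        have h2 : a⁻¹ = a := inv_eq_of_mul_eq_one_left ha2
        have h3 : b⁻¹ = b := inv_eq_of_mul_eq_one_left hb2
        calc a * (a * (a * b) * b) * b = (a * a) * (a * b) * (b * b) := by group
          _ = a * b := by rw [ha2, hb2]; group
          _ = (a * b)⁻¹ := h1.symm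
          _ = b⁻¹ * a⁻¹ := by group
          _ = b * a := by rw [h2, h3]

/-- `E₁`, `E₂` are the only elementary abelian subgroups of `T` of their order. -/
theorem TData.eq_or (d : TData M T e E₁ E₂) (hcT : Nat.card T = 8 * e)
    (hn : T ≤ normalizer (E₁ : Set G)) {F : Subgroup G} (hFT : F ≤ T)
    (hF : IsElementaryAbelian 2 F) (hcF : Nat.card F = 4 * e) : F = E₁ ∨ F = E₂ := by
  have key : F ≤ E₁ ∨ F ≤ E₂ := by
    by_contra hcon
    push Not at hcon
    obtain ⟨h1, h2⟩ := hcon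
    rw [SetLike.not_le_iff_exists] at h1 h2
    obtain ⟨x, hx, hx1⟩ := h1
    obtain ⟨y, hy, hy2⟩ := h2
    have hx2 := (d.mem_or hcT hn (hFT hx) (hF.2 x hx)).resolve_left hx1
    have hy1 := (d.mem_or hcT hn (hFT hy) (hF.2 y hy)).resolve_right hy2
    rcases d.mem_or hcT hn (hFT (F.mul_mem hx hy)) (hF.2 _ (F.mul_mem hx hy)) with h3 | h3
    · apply hx1
      have := E₁.mul_mem h3 (E₁.inv_mem hy1)
      rwa [mul_inv_cancel_right] at this
    · apply hy2
      have := E₂.mul_mem (E₂.inv_mem hx2) h3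
      rwa [inv_mul_cancel_left] at this
  rcases key with h1 | h1
  · left; exact Subgroup.eq_of_le_of_card_ge h1 (by rw [hcF, d.s₁.card])
  · right; exact Subgroup.eq_of_le_of_card_ge h1 (by rw [hcF, d.s₂.card])

/-- The last case. -/
theorem case_three (h : MSetup S M)
    (d : TData M T 2 E₁ E₂) (hTS : T < S)
    (hh : Half T E₁ (normalizer (E₁ : Set G)) 2) :
    (normalizer (E₁ : Set G) ⊓ centralizer (omegaCenterOf T : Set G)).relIndex
      (normalizer (omegaCenterOf T : Set G)) = 2 := by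
  set L := normalizer (E₁ : Set G) with hL
  obtain ⟨x, hxL, hx⟩ := hh.exists_three
  have hZcard : Nat.card (omegaCenterOf T) = 4 := by
    rw [d.omega, d.card_inf hh.cT hh.le']
  -- `Y = C_E(x)` of order 2
  set Y : Subgroup G := E₁ ⊓ centralizer (zpowers x : Set G) with hY
  have hYcard : Nat.card Y = 2 := by
    have h1 := Lib.ProductSet.card_mul_card_inf Y ⁅E₁, zpowers x⁆
    have h2 : ⁅E₁, zpowers x⁆ ≤ normalizer (Y : Set G) := by
      refine (hh.comm_le_E hxL).trans (le_normalizer_of_forall_cj_le fun g hg => ?_)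
      intro z hz
      rw [mem_cj] at hz
      have h3 : g⁻¹ * z * g = z := by
        have hzE : z ∈ E₁ := by
          have := E₁.mul_mem (E₁.mul_mem hg hz.1) (E₁.inv_mem hg)
          have h4 : g * (g⁻¹ * z * g) * g⁻¹ = z := by group
          rwa [h4] at this
        rw [mul_assoc, hh.comm hzE hg]; group
      rwa [h3] at hz
    have h3 := card_sup_mul_card_inf h2
    rw [hh.fix_sup hxL hx, hh.fix_inf hxL hx, card_bot, mul_one, hh.cE, hh.card_comm hxL hx] at h3
    omega
  have hYn : L ≤ normalizer (Y : Set G) := by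
    have h1 : Y = E₁ ⊓ centralizer ((E₁ ⊔ zpowers x : Subgroup G) : Set G) := by
      apply le_antisymm
      · intro y hy
        refine ⟨hy.1, ?_⟩
        have h2 : E₁ ⊔ zpowers x ≤ centralizer ({y} : Set G) := by
          refine sup_le ?_ ?_
          · intro z hz
            rw [mem_centralizer_iff]
            rintro w rfl
            exact hh.comm hy.1 hz
          · intro z hz
            rw [mem_centralizer_iff]
            rintro w rfl
            exact (mem_centralizer_iff.1 hy.2 z hz).symm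
        show y ∈ centralizer ((E₁ ⊔ zpowers x : Subgroup G) : Set G)
        rw [mem_centralizer_iff]
        intro z hz
        exact (mem_centralizer_iff.1 (h2 hz) y rfl).symm
      · exact inf_le_inf_left _ (centralizer_le (show (zpowers x : Set G) ⊆ _ from
          (le_sup_right : zpowers x ≤ E₁ ⊔ zpowers x)))
    rw [h1]
    refine le_normalizer_inf le_rfl (le_normalizer_centralizer ?_)
    refine le_normalizer_of_relIndex_two ?_ (hh.relIndex_sup hxL hx)
    exact sup_le (hh.le.trans hh.le') (by rwa [zpowers_le])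
  have hY2 : IsPGroup 2 Y := IsPGroup.of_card (n := 1) (by rw [hYcard, pow_one])
  have hY1 : Y ≠ ⊥ := by
    intro h1; rw [h1, card_bot] at hYcard; omega
  have hYL : normalizer (Y : Set G) = L :=
    d.s₁.max.2 _ (isTwoLocal_normalizer hY2 hY1) hYn
  -- `Y ≤ Z₀`
  have hYZ : Y ≤ omegaCenterOf T := by
    obtain ⟨y, hy, hy1, hyc⟩ := exists_fixed hh.T2 hY2 hY1 (hh.le'.trans hYn)
    have hyZ : y ∈ omegaCenterOf T := mem_omegaCenterOf.2
      ⟨hh.le hy.1, hyc, hh.el.2 y hy.1⟩
    have h1 : zpowers y ≤ Y := by rwa [zpowers_le]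
    have h2 : Nat.card (zpowers y) = 2 := by
      have h3 : Nat.card (zpowers y) ∣ 2 := by
        rw [← hYcard]; exact Subgroup.card_dvd_of_le h1
      rcases (Nat.dvd_prime Nat.prime_two).1 h3 with h4 | h4
      · rw [Subgroup.card_eq_one, zpowers_eq_bot] at h4
        exact absurd h4 hy1
      · exact h4
    have h3 : zpowers y = Y := Subgroup.eq_of_le_of_card_ge h1 (by rw [h2, hYcard])
    rw [← h3, zpowers_le]
    exact hyZ
  have hCL : centralizer (omegaCenterOf T : Set G) ≤ L := by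
    rw [← hYL]
    exact (centralizer_le (show (Y : Set G) ⊆ _ from hYZ)).trans (centralizer_le_normalizer _)
  have hTC : T ≤ centralizer (omegaCenterOf T : Set G) := le_centralizer_omegaCenterOf T
  have hCT : centralizer (omegaCenterOf T : Set G) = T := by
    have h3 : ¬ 3 ∣ Nat.card (centralizer (omegaCenterOf T : Set G)) := by
      intro h3
      have h4 := hh.eq_of_ge hTC hCL h3
      have h5 : omegaCenterOf T ≤ Y := by
        refine le_inf (by rw [d.omega]; exact inf_le_left) ?_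
        rw [le_centralizer_iff, zpowers_le, h4]
        exact hxL
      have h6 := Subgroup.card_le_of_le h5
      rw [hZcard, hYcard] at h6
      omega
    symm
    apply Subgroup.eq_of_le_of_card_ge hTC
    have h4 : Nat.card (centralizer (omegaCenterOf T : Set G)) ∣ 3 * 16 := by
      have h5 : Nat.card L = 3 * 16 := by rw [hh.cP]
      rw [← h5]
      exact Subgroup.card_dvd_of_le hCL
    have h5 : (Nat.card (centralizer (omegaCenterOf T : Set G))).Coprime 3 :=
      ((Nat.Prime.coprime_iff_not_dvd Nat.prime_three).2 h3).symm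
    have h6 := h5.dvd_of_dvd_mul_left h4
    rw [hh.cT]
    exact Nat.le_of_dvd (by norm_num) h6
  have hNT : normalizer (omegaCenterOf T : Set G) = normalizer (T : Set G) := by
    apply le_antisymm _ (normalizer_le_normalizer_omegaCenterOf T)
    have h1 : normalizer (omegaCenterOf T : Set G) ≤
        normalizer (centralizer (omegaCenterOf T : Set G) : Set G) :=
      le_normalizer_centralizer le_rfl
    rwa [hCT] at h1
  have hLT : L ⊓ centralizer (omegaCenterOf T : Set G) = T := by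
    rw [hCT]; exact inf_eq_right.2 hh.le'
  rw [hLT, hNT]
  -- `N_G(T) ∩ L = T`
  have hNL : normalizer (T : Set G) ⊓ L = T := by
    have h3 : ¬ 3 ∣ Nat.card ↥(normalizer (T : Set G) ⊓ L) := by
      intro h3
      have h4 := hh.eq_of_ge (le_inf le_normalizer hh.le') inf_le_right h3
      apply hh.nT
      rw [← h4]
      exact inf_le_left
    symm
    apply Subgroup.eq_of_le_of_card_ge (le_inf le_normalizer hh.le')
    have h4 : Nat.card ↥(normalizer (T : Set G) ⊓ L) ∣ 3 * 16 := by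
      have h5 : Nat.card L = 3 * 16 := by rw [hh.cP]
      rw [← h5]
      exact Subgroup.card_dvd_of_le inf_le_right
    have h5 : (Nat.card ↥(normalizer (T : Set G) ⊓ L)).Coprime 3 :=
      ((Nat.Prime.coprime_iff_not_dvd Nat.prime_three).2 h3).symm
    have h6 := h5.dvd_of_dvd_mul_left h4
    rw [hh.cT]
    exact Nat.le_of_dvd (by norm_num) h6
  -- `N_G(T)` permutes `E₁, E₂`
  have hperm : ∀ g ∈ normalizer (T : Set G), cj g E₁ = E₁ ∨ cj g E₁ = E₂ := by
    intro g hg
    have hgT : cj g T = T := cj_eq_self_iff.2 hg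
    refine d.eq_or hh.cT hh.le' ?_ ?_ ?_
    · rw [← hgT]; exact cj_mono d.le₁
    · exact PLocal.ThompsonJ.isElementaryAbelian_map d.s₁.el _
    · rw [card_cj, d.s₁.card]
  obtain ⟨a, haS, haT⟩ := SetLike.exists_of_lt (lt_normalizer_inf h.syl.2.1 hTS)
  rw [relIndex_eq_two_iff_exists_notMem_and']
  have hmem : ∀ g ∈ normalizer (T : Set G), cj g E₁ = E₁ → g ∈ T := by
    intro g hg hgE
    rw [← hNL]
    exact ⟨hg, cj_eq_self_iff.1 hgE⟩
  have hane : cj a E₁ = E₂ :=
    (hperm a haS.2).resolve_left fun h1 => haT (hmem a haS.2 h1)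
  refine ⟨a⁻¹, inv_mem haS.2, fun h1 => haT (inv_mem_iff.1 h1), ?_⟩
  intro b hb
  rcases hperm b hb with h1 | h1
  · right; exact hmem b hb h1
  · left
    refine hmem _ (mul_mem (inv_mem haS.2) hb) ?_
    rw [cj_mul, h1, ← hane, cj_inv_cj]

theorem outside_cases (h : MSetup S M) (hT : T ∈ maxStraddlingTwoSubgroups M)
    (d : TData M T e E₁ E₂) (hTS : T ≤ S) {K : Subgroup G} (hK : K ∈ jComponentsOutside M T)
    {L : Subgroup G} (hLmax : IsMaximalTwoLocal L) (hKL : K ⊔ thompsonSubgroupOf 2 T ≤ L) :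
    omegaCenterOf (thompsonSubgroupOf 2 T) ⊓ wOf K ≠ ⊥ ∧
      ((omegaCenterOf S = omegaCenterOf (thompsonSubgroupOf 2 T) ∧
          Nat.card (omegaCenterOf (thompsonSubgroupOf 2 T)) = 2) ∨
        (omegaCenterOf S = omegaCenterOf (thompsonSubgroupOf 2 T) ∧
          Nat.card (omegaCenterOf (thompsonSubgroupOf 2 T)) = 4 ∧ T = S) ∨
        (omegaCenterOf T = omegaCenterOf (thompsonSubgroupOf 2 T) ∧
          Nat.card (omegaCenterOf (thompsonSubgroupOf 2 T)) = 4 ∧
          (L ⊓ centralizer (omegaCenterOf (thompsonSubgroupOf 2 T) : Set G)).relIndex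
            (normalizer (omegaCenterOf (thompsonSubgroupOf 2 T) : Set G)) = 2)) := by
  obtain ⟨E, E', d', hE, hh, hmax, hn⟩ := exists_L h hT d hK
  rw [d.J] at hKL ⊢
  obtain rfl : L = K ⊔ T := hmax.2 L hLmax.1 hKL
  have hJ := hK.1.1
  refine ⟨?_, ?_⟩
  · have hW2 : IsPGroup 2 (wOf K) :=
      isPGroup_of_pow_two fun w hw => by rw [pow_two]; exact hJ.2.2.2.2.2 w hw
    have hW1 : wOf K ≠ ⊥ := by
      intro h1
      have h2 := hJ.2.2.2.2.1
      rw [h1, card_bot] at h2
      omega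
    have hTW : T ≤ normalizer (wOf K : Set G) := by
      have h1 : T ≤ normalizer (K : Set G) := le_sup_right.trans hn
      exact le_normalizer_commutator
        (h1.trans ((normalizer_le_normalizer_pCoreOf _).trans
          (normalizer_le_normalizer_omegaCenterOf _))) h1
    obtain ⟨w, hw, hw1, hwc⟩ := exists_fixed hh.T2 hW2 hW1 hTW
    have hWT : wOf K ≤ T := by
      have h1 : wOf K ≤ omegaCenterOf (pCoreOf 2 K) := by
        rw [wOf, commutator_le_iff_le_normalizer]
        exact (le_normalizer_pCoreOf K).trans (normalizer_le_normalizer_omegaCenterOf _)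
      exact h1.trans ((omegaCenterOf_le _).trans ((pCoreOf_mono_of_normal le_sup_left hn).trans
        (pCoreOf_le_of_isSylow hh.sylow)))
    intro h1
    apply hw1
    rw [← mem_bot, ← h1]
    refine ⟨mem_omegaCenterOf.2 ⟨hWT hw, hwc, ?_⟩, hw⟩
    rw [pow_two]; exact hJ.2.2.2.2.2 w hw
  · have hL2 := hmax.1
    have hZle : omegaCenterOf S ≤ omegaCenterOf T :=
      omegaCenterOf_le_of_char2 hTS hh.sylow (centralizer_pCoreOf_le h.zn.char2 hL2)
    have hcard : Nat.card (omegaCenterOf T) = 2 * e := by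
      rw [d'.omega, d'.card_inf hh.cT (hh.le'.trans (hE.le))]
    have hZ1 : omegaCenterOf S ≠ ⊥ :=
      omegaCenterOf_ne_bot h.syl.2.1 (sylow_ne_bot h.zn.char2 h.syl)
    rcases d.he with rfl | rfl
    · left
      rw [mul_one] at hcard
      refine ⟨Subgroup.eq_of_le_of_card_ge hZle ?_, hcard⟩
      rw [hcard]
      exact Nat.le_of_dvd Nat.card_pos (two_dvd_card (omegaCenterOf_isPGroup S) hZ1)
    · right
      rcases hTS.lt_or_eq with h1 | h1
      · right
        refine ⟨rfl, hcard, ?_⟩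
        have hh' := hh
        rw [hE] at hh' ⊢
        exact case_three h d' h1 hh'
      · left
        refine ⟨?_, hcard, h1⟩
        rw [h1]

end Cfsg.Agent.H251
end

-- part: H251/HalfMore
section
/-!
More on the concrete situation `Half`: `O₂(P) = E`, uniqueness of the `J(T)`-component in `P`.
-/

set_option autoImplicit false
set_option linter.unusedSectionVars false

namespace Cfsg.Agent.H251

open Cfsg Subgroup
open scoped Pointwise commutatorElement

variable {G : Type*} [Group G] [Finite G]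

namespace Half

variable {T E P : Subgroup G} {e : ℕ}

theorem relIndex_E (h : Half T E P e) : E.relIndex T = 2 := by
  have h1 := card_mul_relIndex h.le
  rw [h.cT, h.cE] at h1
  have := h.epos
  apply Nat.eq_of_mul_eq_mul_left (show 0 < 4 * e by omega)
  rw [h1]; ring

/-- `O₂(P) = E`. -/
theorem pCoreOf_eq (h : Half T E P e) : pCoreOf 2 P = E := by
  have h1 : E ≤ pCoreOf 2 P := le_pCoreOf h.E2 (h.le.trans h.le') h.nE
  have h2 : pCoreOf 2 P ≤ T := pCoreOf_le_of_isSylow h.sylow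
  refine (Subgroup.eq_of_le_of_card_ge h1 ?_).symm
  by_contra hcon
  push Not at hcon
  have h3 := card_mul_relIndex h1
  have h4 := card_mul_relIndex h2
  rw [h.cE] at h3 hcon
  rw [h.cT] at h4
  have h5 : E.relIndex (pCoreOf 2 P) * (pCoreOf 2 P).relIndex T = 2 := by
    exact (relIndex_mul_relIndex _ _ _ h1 h2).trans h.relIndex_E
  have h6 : E.relIndex (pCoreOf 2 P) ≠ 1 := by
    intro h6; rw [h6, mul_one] at h3; omega
  have h7 : (pCoreOf 2 P).relIndex T = 1 := by
    have h8 : E.relIndex (pCoreOf 2 P) ∣ 2 := ⟨_, h5.symm⟩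
    rcases (Nat.dvd_prime Nat.prime_two).1 h8 with h9 | h9
    · exact absurd h9 h6
    · rw [h9] at h5; omega
  rw [h7, mul_one] at h4
  have h8 : pCoreOf 2 P = T := Subgroup.eq_of_le_of_card_ge h2 (by rw [h4, h.cT])
  apply h.nT
  rw [← h8]
  exact le_normalizer_pCoreOf P

theorem three_dvd_oddGen (h : Half T E P e) : 3 ∣ Nat.card (oddGen P) := by
  rw [h.card_oddGen]; exact ⟨_, rfl⟩

theorem not_oddGen_le (h : Half T E P e) : ¬ oddGen P ≤ T := by
  intro h1
  have h2 := h.three_dvd_oddGen.trans (Subgroup.card_dvd_of_le h1)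
  obtain ⟨n, hn⟩ := IsPGroup.iff_card.1 h.T2
  rw [hn] at h2
  have := Nat.Prime.dvd_of_dvd_pow Nat.prime_three h2
  omega

/-- The `J(T)`-component in `P` is unique. -/
theorem eq_oddGen (h : Half T E P e) (hJT : thompsonSubgroupOf 2 T = T) {K : Subgroup G}
    (hK : IsJComponent T K) (hKP : K ≤ P) : K = oddGen P := by
  have hTn : T ≤ normalizer (K : Set G) := by
    have h6 := Lib.CoprimeCommutator.right_le_normalizer_commutator K (thompsonSubgroupOf 2 T)
    rw [hK.2.1, hJT] at h6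
    exact h6
  have h3K : 3 ∣ Nat.card K := by
    have h4 := card_mul_relIndex (pCoreOf_le K)
    rw [hK.2.2.1] at h4
    exact ⟨_, by rw [← h4]; ring⟩
  have hP : K ⊔ T = P := h.eq_of_ge le_sup_right (sup_le hKP h.le')
    (h3K.trans (Subgroup.card_dvd_of_le le_sup_left))
  have hPn : P ≤ normalizer (K : Set G) := by
    rw [← hP]; exact sup_le le_normalizer hTn
  apply le_antisymm
  · have h1 : K = oddGen K := hK.1.symm
    rw [h1]; exact oddGen_mono hKP
  · have h7 : K.relIndex P ∣ 8 * e := by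
      have h8 := card_mul_relIndex hKP
      obtain ⟨m, hm⟩ := h3K
      rw [h.cP, hm] at h8
      exact ⟨m, by nlinarith⟩
    obtain ⟨n, hn'⟩ := IsPGroup.iff_card.1 h.T2
    rw [← h.cT, hn'] at h7
    exact oddGen_le_of_relIndex hPn h7

theorem card_wOf (h : Half T E P e) : Nat.card (wOf (oddGen P)) = 4 := by
  obtain ⟨x, hxP, hx⟩ := h.exists_three
  rw [h.wOf_eq hxP hx, h.card_comm hxP hx]

theorem wOf_le (h : Half T E P e) : wOf (oddGen P) ≤ E := by
  obtain ⟨x, hxP, hx⟩ := h.exists_three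
  rw [h.wOf_eq hxP hx]
  exact h.comm_le_E hxP

theorem wOf_el (h : Half T E P e) : IsElementaryAbelian 2 (wOf (oddGen P)) :=
  PLocal.ThompsonJ.isElementaryAbelian_mono h.el h.wOf_le

theorem wOf_two (h : Half T E P e) : IsPGroup 2 (wOf (oddGen P)) := h.E2.to_le h.wOf_le

theorem wOf_ne_bot (h : Half T E P e) : wOf (oddGen P) ≠ ⊥ := by
  intro h1
  have h2 := h.card_wOf
  rw [h1, card_bot] at h2
  omega

theorem le_normalizer_wOf (_h : Half T E P e) : P ≤ normalizer (wOf (oddGen P) : Set G) := by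
  have h1 : P ≤ normalizer (oddGen P : Set G) := le_normalizer_oddGen P
  exact le_normalizer_commutator
    (h1.trans ((normalizer_le_normalizer_pCoreOf _).trans (normalizer_le_normalizer_omegaCenterOf _)))
    h1

/-- `P` is its only maximal 2-local overgroup... if `P` is a maximal 2-local then `N_G(W_K) = P`. -/
theorem normalizer_wOf (h : Half T E P e) (hmax : IsMaximalTwoLocal P) :
    normalizer (wOf (oddGen P) : Set G) = P :=
  hmax.2 _ (isTwoLocal_normalizer h.wOf_two h.wOf_ne_bot) h.le_normalizer_wOf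

theorem mem_jComponentsZero (h : Half T E P e) (hJT : thompsonSubgroupOf 2 T = T)
    (hmax : IsMaximalTwoLocal P) : oddGen P ∈ jComponentsZero T := by
  refine ⟨h.isJComponent hJT, ?_⟩
  intro S' hS' hsyl
  rw [h.normalizer_wOf hmax] at hsyl
  rw [hJT] at hS'
  rw [← syl_eq_of_le h.sylow hsyl.2.1 hsyl.1 hS']

end Half

end Cfsg.Agent.H251
end

-- part: H251/Bridge
section
/-!
The structure theorem of `H252/ZNStruct` in the form `TData`.
-/

set_option autoImplicit false
set_option linter.unusedSectionVars false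

namespace Cfsg.Agent.H251

open Cfsg Subgroup

variable {G : Type*} [Group G] [Finite G]

theorem cent_eq {U : Subgroup G} (h1 : centralizer (U : Set G) ≤ U)
    (h2 : IsElementaryAbelian 2 U) : centralizer (U : Set G) = U := by
  refine le_antisymm h1 fun x hx => ?_
  rw [mem_centralizer_iff]
  intro y hy
  exact PLocal.ThompsonJ.isElementaryAbelian_comm h2 hy hx

theorem exists_tdata (hL : Cfsg.IsCharacteristicTwoType G)
    (hN : ∀ N : Subgroup G, Cfsg.IsTwoLocal N → Group.IsSolvable ↥N)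
    (hZ : ∀ S : Sylow 2 G, Subgroup.centralizer (Cfsg.omegaCenterOf (S : Subgroup G) : Set G) ≤
      Subgroup.normalizer ((S : Subgroup G) : Set G)) (hO : Cfsg.pCore 2 G = ⊥) (S : Sylow 2 G)
    (M : Subgroup G) (hM : Cfsg.IsTwoLocal M)
    (hMJ : Subgroup.normalizer (Cfsg.thompsonSubgroupOf 2 (S : Subgroup G) : Set G) ≤ M)
    (T : Subgroup G) (hT : T ∈ Cfsg.maxStraddlingTwoSubgroups M) :
    MSetup (S : Subgroup G) M ∧ ∃ (e : ℕ) (E₁ E₂ : Subgroup G), TData M T e E₁ E₂ := by
  refine ⟨⟨⟨hL, hN, hZ⟩, hO, sylow_isSylowTwoIn S, hM, hMJ⟩, ?_⟩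
  obtain ⟨e, U₁, U₂, h⟩ := H252.ZNStruct.exists_ts hL hN hZ hO S hM hMJ hT
  have e₁ := H252.ZNCross.isElem_of h.dat.cross.elem₁
  have e₂ := H252.ZNCross.isElem_of h.dat.cross.elem₂
  exact ⟨e, U₁, U₂, h.dat.he, h.dat.cross.ne, h.dat.cross.sup_eq.symm, h.dat.cross.jj_eq,
    ⟨e₁, h.dat.cross.card₁, cent_eq h.dat.cross.cent₁ e₁, h.dat.norm₁, h.dat.max₁⟩,
    ⟨e₂, h.dat.cross.card₂, cent_eq h.dat.cross.cent₂ e₂, h.dat.norm₂, h.dat.max₂⟩, h.all⟩

end Cfsg.Agent.H251
end
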