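import Cfsg.Agent.H251.JThompson
set_option linter.all false

-- part: H251/JFixed
section
/-!
Fixed points of 2-groups acting by conjugation, and the Sylow centre lemma.
-/

set_option autoImplicit false
set_option linter.unusedSectionVars false

namespace Cfsg.Agent.H251

open Cfsg Subgroup
open scoped Pointwise commutatorElement

variable {G : Type*} [Group G] [Finite G]

theorem two_dvd_card {X : Subgroup G} (hX : IsPGroup 2 X) (h1 : X ≠ ⊥) : 2 ∣ Nat.card X := by
  have hnt : Nontrivial X := (Subgroup.nontrivial_iff_ne_bot X).2 h1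
  obtain ⟨n, hn, hcard⟩ := (IsPGroup.nontrivial_iff_card hX).1 hnt
  rw [hcard]; exact dvd_pow_self 2 hn.ne'

/-- A 2-group `T` normalizing a non-trivial 2-group `U` centralizes a non-trivial element of `U`. -/
theorem exists_fixed {T U : Subgroup G} (hT : IsPGroup 2 T) (hU : IsPGroup 2 U) (hU1 : U ≠ ⊥)
    (hTU : T ≤ normalizer (U : Set G)) : ∃ x ∈ U, x ≠ 1 ∧ x ∈ centralizer (T : Set G) := by
  have hmem : ∀ (t : T) (u : G), u ∈ U → (t : G) * u * (t : G)⁻¹ ∈ U := fun t u hu =>
    (Subgroup.mem_normalizer_iff.1 (hTU t.2) u).1 hu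
  let act : MulAction T U :=
    { smul := fun t u => ⟨(t : G) * u * (t : G)⁻¹, hmem t u u.2⟩
      one_smul := fun u => Subtype.ext (by
        show ((1 : T) : G) * (u : G) * ((1 : T) : G)⁻¹ = u
        simp)
      mul_smul := fun s t u => Subtype.ext (by
        show ((s * t : T) : G) * (u : G) * ((s * t : T) : G)⁻¹ =
          (s : G) * ((t : G) * u * (t : G)⁻¹) * (s : G)⁻¹
        rw [Subgroup.coe_mul]; group) }
  have hfix1 : (1 : U) ∈ MulAction.fixedPoints T U := by
    intro t
    apply Subtype.ext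
    show (t : G) * ((1 : U) : G) * (t : G)⁻¹ = ((1 : U) : G)
    simp
  obtain ⟨b, hb, hb1⟩ := hT.exists_fixed_point_of_prime_dvd_card_of_fixed_point U
    (two_dvd_card hU hU1) hfix1
  refine ⟨b, b.2, ?_, ?_⟩
  · intro h
    exact hb1 (Subtype.ext h.symm)
  · rw [mem_centralizer_iff]
    intro t ht
    have h1 := congrArg Subtype.val (hb ⟨t, ht⟩)
    have h2 : t * (b : G) * t⁻¹ = b := h1
    calc t * (b : G) = t * b * t⁻¹ * t := by group
      _ = b * t := by rw [h2]

/-- If a 2-group `T` normalizes a non-trivial 2-group `U`, then some non-trivial element of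
`Ω₁(Z(U))` is centralized by `T`. -/
theorem exists_fixed_omegaCenterOf {T U : Subgroup G} (hT : IsPGroup 2 T) (hU : IsPGroup 2 U)
    (hU1 : U ≠ ⊥) (hTU : T ≤ normalizer (U : Set G)) :
    ∃ x ∈ omegaCenterOf U, x ≠ 1 ∧ x ∈ centralizer (T : Set G) :=
  exists_fixed hT (omegaCenterOf_isPGroup U) (omegaCenterOf_ne_bot hU hU1)
    (hTU.trans (normalizer_le_normalizer_omegaCenterOf U))

end Cfsg.Agent.H251
end

-- part: H251/ZN
section
/-!
ZN-groups of characteristic 2 type: basic facts, and facts on `𝒯(M)`.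
-/

set_option autoImplicit false
set_option linter.unusedSectionVars false

namespace Cfsg.Agent.H251

open Cfsg Subgroup
open scoped Pointwise commutatorElement

variable {G : Type*} [Group G] [Finite G]

/-- The hypotheses on a ZN-group of characteristic 2 type. -/
structure ZN (G : Type*) [Group G] : Prop where
  char2 : IsCharacteristicTwoType G
  solv : ∀ N : Subgroup G, IsTwoLocal N → Group.IsSolvable ↥N
  cent : ∀ S : Sylow 2 G, centralizer (omegaCenterOf (S : Subgroup G) : Set G) ≤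
    normalizer ((S : Subgroup G) : Set G)

/-- `C_G(Z) ≤ N_G(S)` for Sylow subgroups in the `IsSylowTwoIn` form. -/
theorem ZN.cent' (h : ZN G) {S : Subgroup G} (hS : IsSylowTwoIn S ⊤) :
    centralizer (omegaCenterOf S : Set G) ≤ normalizer (S : Set G) := by
  obtain ⟨P, rfl⟩ := isSylowTwoIn_top.1 hS
  exact h.cent P

theorem sylow_isSylowTwoIn (S : Sylow 2 G) : IsSylowTwoIn (S : Subgroup G) ⊤ :=
  isSylowTwoIn_top.2 ⟨S, rfl⟩

theorem sylow_ne_bot (h : IsCharacteristicTwoType G) {S : Subgroup G} (hS : IsSylowTwoIn S ⊤) :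
    S ≠ ⊥ := by
  rintro rfl
  have h1 := hS.2.2
  rw [relIndex_top_right, index_bot] at h1
  exact (Nat.not_even_iff_odd.2 h1) h.1

/-- `Ω₁(Z(S)) ≤ Ω₁(Z(T))` if `T ≤ S`, `T` is Sylow in `L` and `C_G(O₂(L)) ≤ O₂(L)`. -/
theorem omegaCenterOf_le_of_char2 {S T L : Subgroup G} (hTS : T ≤ S) (hT : IsSylowTwoIn T L)
    (hc : centralizer (pCoreOf 2 L : Set G) ≤ pCoreOf 2 L) :
    omegaCenterOf S ≤ omegaCenterOf T := by
  intro x hx
  rw [mem_omegaCenterOf] at hx ⊢
  have h1 : x ∈ centralizer (T : Set G) := centralizer_le (show (T : Set G) ⊆ _ from hTS) hx.2.1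
  have h2 : x ∈ centralizer (pCoreOf 2 L : Set G) :=
    centralizer_le (show (_ : Set G) ⊆ _ from pCoreOf_le_of_isSylow hT) h1
  exact ⟨pCoreOf_le_of_isSylow hT (hc h2), h1, hx.2.2⟩

/-- `Ω₁(Z(T)) ≤ Ω₁(Z(O₂(L)))`. -/
theorem omegaCenterOf_le_omegaCenterOf_pCoreOf {T L : Subgroup G} (hT : IsSylowTwoIn T L)
    (hc : centralizer (pCoreOf 2 L : Set G) ≤ pCoreOf 2 L) :
    omegaCenterOf T ≤ omegaCenterOf (pCoreOf 2 L) :=
  omegaCenterOf_anti (pCoreOf_le_of_isSylow hT) (inf_le_right.trans hc)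

/-! ### The set-up with `M` -/

/-- The set-up: `M` a 2-local containing `N_G(J(S))`, `O₂(G) = 1`. -/
structure MSetup (S M : Subgroup G) : Prop where
  zn : ZN G
  core : pCore 2 G = ⊥
  syl : IsSylowTwoIn S ⊤
  twoLocal : IsTwoLocal M
  nJ : normalizer (thompsonSubgroupOf 2 S : Set G) ≤ M

variable {S M : Subgroup G}

theorem MSetup.nS (h : MSetup S M) : normalizer (S : Set G) ≤ M :=
  (normalizer_le_normalizer_J S).trans h.nJ

theorem MSetup.S_le (h : MSetup S M) : S ≤ M := le_normalizer.trans h.nS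

theorem MSetup.sylM (h : MSetup S M) : IsSylowTwoIn S M := syl_of_le h.syl h.S_le le_top

theorem MSetup.cZ (h : MSetup S M) : centralizer (omegaCenterOf S : Set G) ≤ M :=
  (h.zn.cent' h.syl).trans h.nS

/-- The set-up is invariant under conjugation by elements of `M`. -/
theorem MSetup.conj (h : MSetup S M) {m : G} (hm : m ∈ M) : MSetup (cj m S) M := by
  refine ⟨h.zn, h.core, ?_, h.twoLocal, ?_⟩
  · have := syl_cj h.syl m
    rwa [cj_top] at this
  · rw [J_cj, ← cj_normalizer, ← cj_self_of_mem hm (H := M)]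
    exact cj_mono h.nJ

/-- Every 2-subgroup of `M` lies in `cj m S` for some `m ∈ M`. -/
theorem MSetup.exists_le_cj (h : MSetup S M) {T : Subgroup G} (hT : IsPGroup 2 T) (hTM : T ≤ M) :
    ∃ m ∈ M, T ≤ cj m S := syl_exists_le_cj h.sylM hT hTM

theorem MSetup.normalizer_M (h : MSetup S M) : normalizer (M : Set G) = M := by
  refine le_antisymm ?_ le_normalizer
  exact frattini_le h.sylM le_normalizer le_rfl le_rfl (inf_le_right.trans h.nS)

theorem MSetup.M_ne_top (h : MSetup S M) : M ≠ ⊤ := isTwoLocal_ne_top h.core h.twoLocal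

end Cfsg.Agent.H251
end
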